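import Cfsg.Agent.Lib.Char.RealChar
import Cfsg.Agent.Lib.Char.GenLattice
import Cfsg.Agent.Lib.Char.FrobSchur
import Cfsg.Agent.Lib.Coh.System
import Mathlib

/-!
# The parity of the inner product of two real virtual characters of a group of odd order

`G` of odd order: the only real irreducible character is `1`, so for real virtual characters `X`, `Ω`,
`⟨X, Ω⟩ ≡ ⟨X, 1⟩ ⟨Ω, 1⟩ (mod 2)`.
-/

set_option autoImplicit false

namespace Cfsg.Agent.Lib.PF.ConjParity

open Cfsg ComplexConjugate
open Cfsg.Agent.Lib.Char.Ortho Cfsg.Agent.Lib.Char.GenLattice Cfsg.Agent.Lib.Char.Basic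

variable {G : Type*} [Group G] [Fintype G]

/-- The inner product of two real virtual characters, modulo `2`. -/
theorem parity_gen (hodd : Odd (Nat.card G)) {X Ω : G → ℂ} (hX : IsGeneralizedCharacter G X)
    (hΩ : IsGeneralizedCharacter G Ω) (hXr : conjFun X = X) (hΩr : conjFun Ω = Ω) :
    ∃ n m k : ℤ, classInner X (fun _ => 1) = n ∧ classInner Ω (fun _ => 1) = m ∧
      classInner X Ω = ((n * m + 2 * k : ℤ) : ℂ) := by
  classical
  haveI := finite_irrCharacter (G := G)
  letI : Fintype (IrrCharacter G) := Fintype.ofFinite _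
  obtain ⟨a, ha, -⟩ := eq_sum_int_classInner hX
  obtain ⟨b, hb, hΩs⟩ := eq_sum_int_classInner hΩ
  let one : IrrCharacter G := ⟨fun _ => 1, Cfsg.Agent.Lib.Char.RealChar.isIrr_one'⟩
  let σ : IrrCharacter G → IrrCharacter G := fun i => ⟨conjFun (i : G → ℂ), Cfsg.Agent.Lib.Char.FrobSchur.isIrr_conj i.2⟩
  have hσσ : ∀ i, σ (σ i) = i := fun i => Subtype.ext (Cfsg.Agent.Lib.Coh.System.conj_conj _)
  have hfix : ∀ i, σ i = i → i = one := by
    intro i hi
    apply Subtype.ext
    refine Cfsg.Agent.Lib.Char.RealChar.eq_one_of_real_of_odd hodd i.2 fun g => ?_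
    have h1 : conjFun (i : G → ℂ) g = (i : G → ℂ) g := by
      have := congrArg Subtype.val hi
      exact congrFun this g
    exact Complex.conj_eq_iff_im.mp h1
  -- the invariance of the coefficients
  have hinv : ∀ {θ : G → ℂ} {c : IrrCharacter G → ℤ}, conjFun θ = θ →
      (∀ i : IrrCharacter G, classInner θ (i : G → ℂ) = c i) → ∀ i, c (σ i) = c i := by
    intro θ c hθ hc i
    have h1 : classInner θ (σ i : G → ℂ) = conj (classInner θ (i : G → ℂ)) := by
      have := Cfsg.Agent.Lib.Coh.System.inner_conj_conj θ (i : G → ℂ)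
      rwa [hθ] at this
    rw [hc, hc, map_intCast] at h1
    exact_mod_cast h1
  have haσ := hinv hXr ha
  have hbσ := hinv hΩr hb
  -- the formula for the inner product
  have hform : classInner X Ω = ((∑ i, a i * b i : ℤ) : ℂ) := by
    conv_lhs => rw [hΩs]
    rw [classInner_sum_right]
    push_cast
    refine Finset.sum_congr rfl fun i _ => ?_
    rw [← classInner_conj, classInner_zsmul_left, map_mul, map_intCast, classInner_conj,
      ha i]
    ring
  -- modulo two
  have hmod : ((∑ i, a i * b i : ℤ) : ZMod 2) = ((a one * b one : ℤ) : ZMod 2) := by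
    push_cast
    rw [← Finset.add_sum_erase _ _ (Finset.mem_univ one)]
    have h0 : ∑ i ∈ Finset.univ.erase one, ((a i : ZMod 2) * (b i : ZMod 2)) = 0 := by
      refine Finset.sum_involution (fun i _ => σ i) ?_ ?_ ?_ ?_
      · intro i _
        rw [haσ, hbσ, CharTwo.add_self_eq_zero]
      · intro i hi _ h
        exact (Finset.mem_erase.mp hi).1 (hfix i h)
      · intro i hi
        refine Finset.mem_erase.mpr ⟨fun h => (Finset.mem_erase.mp hi).1 ?_, Finset.mem_univ _⟩
        have h2 : σ one = one := Subtype.ext (by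
          funext g
          show conj (1 : ℂ) = 1
          simp)
        rw [← hσσ i, h, h2]
      · intro i _
        exact hσσ i
    rw [h0, add_zero]
  have hdvd : (2 : ℤ) ∣ (∑ i, a i * b i) - a one * b one := by
    have h1 : (((∑ i, a i * b i) - a one * b one : ℤ) : ZMod 2) = 0 := by
      rw [Int.cast_sub, hmod, sub_self]
    exact_mod_cast (ZMod.intCast_zmod_eq_zero_iff_dvd _ 2).mp h1
  obtain ⟨k, hk⟩ := hdvd
  refine ⟨a one, b one, k, ha one, hb one, ?_⟩
  rw [hform]
  have : ∑ i, a i * b i = a one * b one + 2 * k := by linarith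
  rw [this]

/-- The parity lemma. -/
theorem parity (hodd : Odd (Nat.card G)) {X Ω : G → ℂ} (hX : IsGeneralizedCharacter G X)
    (hΩ : IsGeneralizedCharacter G Ω) (hXr : conjFun X = X) (hΩr : conjFun Ω = Ω)
    (h : classInner X (fun _ => 1) = 0) : ∃ k : ℤ, classInner X Ω = ((2 * k : ℤ) : ℂ) := by
  obtain ⟨n, m, k, h1, -, h3⟩ := parity_gen hodd hX hΩ hXr hΩr
  rw [h] at h1
  have hn : n = 0 := by exact_mod_cast h1.symm
  refine ⟨k, ?_⟩
  rw [h3, hn]
  simp

end Cfsg.Agent.Lib.PF.ConjParity
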