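import Cfsg.Agent.Lib.OddChar.AbelianTI
import Cfsg.Agent.Lib.Coh2.Frob
import Mathlib.Tactic

/-!
# Characters induced from a linear character of a subgroup `Y ≥ P`, `P` normal, Frobenius-like off `P`

`A` a finite group, `P ≤ Y` subgroups, `P` normal in `A`, with: for `y ∈ Y \ P`, `c y c⁻¹ ∈ Y` implies `c ∈ Y`.
`nu Λ = Ind_Y^A Λ` for `Λ` a linear character of `Y`.  We compute its inner products.
-/

set_option autoImplicit false
set_option linter.unusedSectionVars false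
set_option linter.unusedFintypeInType false
set_option linter.unusedDecidableInType false

namespace Cfsg.Agent.Lib.PF.NatNu

open Cfsg
open Cfsg.Agent.Lib.Char.Induced Cfsg.Agent.Lib.Char.Ortho Cfsg.Agent.Lib.Char.Basic
open Cfsg.Agent.Lib.OddChar.Dual Cfsg.Agent.Lib.Char.IndRep
open scoped ComplexConjugate

universe u

variable {A : Type u} [Group A] [Fintype A] {Y P : Subgroup A} [Fintype Y] [Fintype P]

/-- A linear character as a function. -/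
def lin (Λ : Y →* ℂˣ) : Y → ℂ := fun y => ((Λ y : ℂˣ) : ℂ)

/-- The character induced from a linear character. -/
noncomputable def nu (Λ : Y →* ℂˣ) : A → ℂ := indFun Y (lin Λ)

theorem isCharacter_nu (Λ : Y →* ℂˣ) : IsCharacter A (nu Λ) :=
  isCharacter_indFun Y (Cfsg.Agent.Lib.OddChar.AbelianTI.isCharacter_hom Λ)

theorem isClassFunction_nu (Λ : Y →* ℂˣ) : IsClassFunction A (nu Λ) := isClassFunction_indFun _ _

theorem nu_one (Λ : Y →* ℂˣ) : nu Λ 1 = (Y.index : ℂ) := by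
  rw [nu, indFun_one]
  simp [lin]

theorem nu_apply (Λ : Y →* ℂˣ) (g : A) :
    nu Λ g = (Nat.card Y : ℂ)⁻¹ * ∑ x : A, extendByZero Y (lin Λ) (x⁻¹ * g * x) := rfl

/-- The value on elements without fusion. -/
theorem nu_of_frob (Λ : Y →* ℂˣ) {y : A} (hy : y ∈ Y) (hf : ∀ c : A, c * y * c⁻¹ ∈ Y → c ∈ Y) :
    nu Λ y = ((Λ ⟨y, hy⟩ : ℂˣ) : ℂ) := by
  classical
  rw [nu_apply]
  have h1 : ∀ x : A, extendByZero Y (lin Λ) (x⁻¹ * y * x) =
      if x ∈ Y then ((Λ ⟨y, hy⟩ : ℂˣ) : ℂ) else 0 := by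
    intro x
    by_cases hx : x ∈ Y
    · rw [if_pos hx]
      have hm : x⁻¹ * y * x ∈ Y := Y.mul_mem (Y.mul_mem (Y.inv_mem hx) hy) hx
      rw [extendByZero_of_mem _ _ hm]
      simp only [lin]
      have e : (⟨x⁻¹ * y * x, hm⟩ : Y) = (⟨x, hx⟩ : Y)⁻¹ * ⟨y, hy⟩ * ⟨x, hx⟩ := rfl
      rw [e, map_mul, map_mul, map_inv]
      congr 1
      rw [mul_comm, ← mul_assoc, mul_inv_cancel, one_mul]
    · rw [if_neg hx]
      apply extendByZero_of_not_mem
      intro hm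
      apply hx
      have := hf x⁻¹ (by simpa using hm)
      simpa using this
  simp only [h1]
  rw [Finset.sum_ite, Finset.sum_const_zero, add_zero, Finset.sum_const, nsmul_eq_mul]
  have hc : ((Finset.univ.filter (fun x : A => x ∈ Y)).card : ℂ) = (Nat.card Y : ℂ) := by
    congr 1
    rw [Nat.card_eq_fintype_card, Fintype.card_subtype]
  rw [hc]
  have : (Nat.card Y : ℂ) ≠ 0 := by exact_mod_cast Nat.card_pos.ne'
  field_simp

/-- The value off the conjugates of `Y`. -/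
theorem nu_eq_zero (Λ : Y →* ℂˣ) {g : A} (h : ∀ c : A, c⁻¹ * g * c ∉ Y) : nu Λ g = 0 := by
  rw [nu_apply]
  have h1 : ∀ x : A, extendByZero Y (lin Λ) (x⁻¹ * g * x) = 0 :=
    fun x => extendByZero_of_not_mem _ _ (h x)
  simp [h1]

/-- Complex conjugation. -/
theorem conjFun_nu (Λ : Y →* ℂˣ) : conjFun (nu Λ) = nu Λ⁻¹ := by
  rw [nu, Cfsg.Agent.Lib.Coh2.Frob.conjFun_indFun, nu]
  congr 1
  funext y
  simp only [conjFun, lin]
  rw [conj_apply]
  simp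

theorem classInner_nu_nu (Λ Λ' : Y →* ℂˣ) :
    classInner (nu Λ) (nu Λ') = (Nat.card Y : ℂ)⁻¹ * ∑ y : Y, ((Λ y : ℂˣ) : ℂ) * conj (nu Λ' (y : A)) := by
  rw [nu.eq_1 Λ, classInner_indFun_left Y _ _ (isClassFunction_nu Λ')]
  rfl

section Frob

variable (hPY : P ≤ Y) (hPn : ∀ c p : A, p ∈ P → c * p * c⁻¹ ∈ P)

/-- The restriction to `P` of a conjugate of `Λ`. -/
def resC (Λ : Y →* ℂˣ) (c : A) : P →* ℂˣ where
  toFun p := Λ ⟨c⁻¹ * p * c, hPY (by simpa using hPn c⁻¹ p p.2)⟩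
  map_one' := by
    have : (⟨c⁻¹ * ((1 : P) : A) * c, hPY (by simpa using hPn c⁻¹ _ (1 : P).2)⟩ : Y) = 1 := by
      ext; simp
    rw [this, map_one]
  map_mul' := by
    intro a b
    have : (⟨c⁻¹ * ((a * b : P) : A) * c, hPY (by simpa using hPn c⁻¹ _ (a * b : P).2)⟩ : Y) =
        ⟨c⁻¹ * (a : A) * c, hPY (by simpa using hPn c⁻¹ _ a.2)⟩ *
          ⟨c⁻¹ * (b : A) * c, hPY (by simpa using hPn c⁻¹ _ b.2)⟩ := by
      ext; simp; group
    rw [this, map_mul]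

theorem resC_apply (Λ : Y →* ℂˣ) (c : A) (p : P) :
    extendByZero Y (lin Λ) (c⁻¹ * (p : A) * c) = ((resC hPY hPn Λ c p : ℂˣ) : ℂ) := by
  have hm : c⁻¹ * (p : A) * c ∈ Y := hPY (by simpa using hPn c⁻¹ p p.2)
  rw [extendByZero_of_mem _ _ hm]
  rfl

theorem nu_on_P (Λ : Y →* ℂˣ) (p : P) :
    nu Λ (p : A) = (Nat.card Y : ℂ)⁻¹ * ∑ c : A, ((resC hPY hPn Λ c p : ℂˣ) : ℂ) := by
  rw [nu_apply]
  simp only [resC_apply hPY hPn]

/-- The value of the restriction on elements of `P`, with `c = 1`. -/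
theorem resC_one_apply (Λ : Y →* ℂˣ) (p : P) : resC hPY hPn Λ 1 p = Λ ⟨p, hPY p.2⟩ := by
  simp only [resC]
  show Λ _ = Λ _
  congr 1
  ext
  simp

open Classical in
/-- The general inner product formula. -/
theorem inner_formula (hfrob : ∀ y ∈ Y, y ∉ P → ∀ c : A, c * y * c⁻¹ ∈ Y → c ∈ Y) (Λ Λ' : Y →* ℂˣ) :
    classInner (nu Λ) (nu Λ') = (Nat.card Y : ℂ)⁻¹ *
      ((∑ y : Y, if (y : A) ∈ P then 0 else ((Λ y : ℂˣ) : ℂ) * conj ((Λ' y : ℂˣ) : ℂ)) +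
        (Nat.card Y : ℂ)⁻¹ * (Nat.card P : ℂ) *
          ((Finset.univ.filter (fun c : A => resC hPY hPn Λ 1 = resC hPY hPn Λ' c)).card : ℂ)) := by
  classical
  rw [classInner_nu_nu]
  congr 1
  have hsplit : ∀ y : Y, ((Λ y : ℂˣ) : ℂ) * conj (nu Λ' (y : A)) =
      (if (y : A) ∈ P then 0 else ((Λ y : ℂˣ) : ℂ) * conj ((Λ' y : ℂˣ) : ℂ)) +
        (if (y : A) ∈ P then ((Λ y : ℂˣ) : ℂ) * conj (nu Λ' (y : A)) else 0) := by
    intro y
    by_cases hy : (y : A) ∈ P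
    · simp [hy]
    · simp only [hy, if_false, add_zero]
      rw [nu_of_frob Λ' y.2 (hfrob y y.2 hy)]
  rw [Finset.sum_congr rfl (fun y _ => hsplit y), Finset.sum_add_distrib]
  congr 1
  -- the sum over `P`
  have h1 : (∑ y : Y, if (y : A) ∈ P then ((Λ y : ℂˣ) : ℂ) * conj (nu Λ' (y : A)) else 0) =
      ∑ p : P, ((resC hPY hPn Λ 1 p : ℂˣ) : ℂ) * conj (nu Λ' (p : A)) := by
    rw [← Finset.sum_filter]
    symm
    refine Finset.sum_bij (fun p _ => (⟨p, hPY p.2⟩ : Y)) ?_ ?_ ?_ ?_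
    · intro p _
      simp
    · intro a _ b _ h
      exact Subtype.ext (congrArg (fun y : Y => (y : A)) h)
    · intro b hb
      rw [Finset.mem_filter] at hb
      exact ⟨⟨b, hb.2⟩, Finset.mem_univ _, rfl⟩
    · intro p _
      rw [resC_one_apply]
  rw [h1]
  simp only [nu_on_P hPY hPn Λ', map_mul, map_sum, map_inv₀, map_natCast]
  have h2 : ∀ p : P, ((resC hPY hPn Λ 1 p : ℂˣ) : ℂ) * (((Nat.card Y : ℂ))⁻¹ *
      ∑ c : A, conj ((resC hPY hPn Λ' c p : ℂˣ) : ℂ)) =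
      (Nat.card Y : ℂ)⁻¹ * ∑ c : A, ((resC hPY hPn Λ 1 p : ℂˣ) : ℂ) * conj ((resC hPY hPn Λ' c p : ℂˣ) : ℂ) := by
    intro p
    rw [Finset.mul_sum, Finset.mul_sum, Finset.mul_sum]
    exact Finset.sum_congr rfl fun c _ => by ring
  rw [Finset.sum_congr rfl (fun p _ => h2 p), ← Finset.mul_sum, Finset.sum_comm]
  have h3 : ∀ c : A, (∑ p : P, ((resC hPY hPn Λ 1 p : ℂˣ) : ℂ) * conj ((resC hPY hPn Λ' c p : ℂˣ) : ℂ)) =
      (Nat.card P : ℂ) * (if resC hPY hPn Λ 1 = resC hPY hPn Λ' c then 1 else 0) := by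
    intro c
    have h4 := classInner_hom (resC hPY hPn Λ 1) (resC hPY hPn Λ' c)
    unfold Cfsg.classInner at h4
    have hP : (Nat.card P : ℂ) ≠ 0 := by exact_mod_cast Nat.card_pos.ne'
    by_cases he : resC hPY hPn Λ 1 = resC hPY hPn Λ' c
    · rw [if_pos he] at h4 ⊢
      field_simp at h4 ⊢
      linear_combination h4
    · rw [if_neg he] at h4 ⊢
      field_simp at h4 ⊢
      linear_combination h4
  simp only [h3]
  rw [← Finset.mul_sum, Finset.sum_boole]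
  ring

theorem resC_of_mem (Λ : Y →* ℂˣ) {c : A} (hc : c ∈ Y) : resC hPY hPn Λ c = resC hPY hPn Λ 1 := by
  ext p
  have h1 : resC hPY hPn Λ c p = Λ (⟨c, hc⟩⁻¹ * ⟨p, hPY p.2⟩ * ⟨c, hc⟩) := by
    simp only [resC]
    show Λ _ = Λ _
    congr 1
  rw [h1, resC_one_apply, map_mul, map_mul, map_inv]
  congr 1
  rw [mul_comm, ← mul_assoc, mul_inv_cancel, one_mul]

/-- `|Y|` elements `c` when the stabilizer is `Y`. -/
theorem card_filter_Y [DecidablePred (fun x : A => x ∈ Y)] :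
    ((Finset.univ.filter (fun c : A => c ∈ Y)).card : ℂ) = (Nat.card Y : ℂ) := by
  congr 1
  rw [Nat.card_eq_fintype_card, Fintype.card_subtype]

open Classical in
/-- The sum over `Y \ P` of the constant `1`. -/
theorem sum_off_one (hPY' : P ≤ Y) :
    (∑ y : Y, if (y : A) ∈ P then (0 : ℂ) else 1) = (Nat.card Y : ℂ) - (Nat.card P : ℂ) := by
  have h1 : (∑ y : Y, if (y : A) ∈ P then (0 : ℂ) else 1) =
      ∑ y : Y, (1 - if (y : A) ∈ P then (1 : ℂ) else 0) := by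
    refine Finset.sum_congr rfl fun y _ => ?_
    split_ifs <;> simp
  rw [h1, Finset.sum_sub_distrib, Finset.sum_boole]
  simp only [Finset.sum_const, Finset.card_univ, nsmul_eq_mul, mul_one]
  congr 1
  · rw [Nat.card_eq_fintype_card]
  · congr 1
    rw [Nat.card_eq_fintype_card]
    refine Finset.card_bij (fun y hy => ⟨y, (Finset.mem_filter.mp hy).2⟩) ?_ ?_ ?_
    · intro a _; exact Finset.mem_univ _
    · intro a _ b _ h
      exact Subtype.ext (congrArg (fun x : P => (x : A)) h)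
    · intro b _
      exact ⟨⟨b, hPY' b.2⟩, by simp, rfl⟩

/-- **`Ind_Y^A Λ` has norm `1`**, when the stabilizer of `Λ|_P` is `Y`. -/
theorem norm_nu (hfrob : ∀ y ∈ Y, y ∉ P → ∀ c : A, c * y * c⁻¹ ∈ Y → c ∈ Y) (Λ : Y →* ℂˣ)
    (hstab : ∀ c : A, resC hPY hPn Λ 1 = resC hPY hPn Λ c → c ∈ Y) :
    classInner (nu Λ) (nu Λ) = 1 := by
  classical
  rw [inner_formula hPY hPn hfrob]
  have h1 : ∀ y : Y, ((Λ y : ℂˣ) : ℂ) * conj ((Λ y : ℂˣ) : ℂ) = 1 := by
    intro y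
    rw [conj_apply, ← Units.val_mul, ← map_mul]
    simp
  simp only [h1]
  rw [sum_off_one hPY]
  have h2 : Finset.univ.filter (fun c : A => resC hPY hPn Λ 1 = resC hPY hPn Λ c) =
      Finset.univ.filter (fun c : A => c ∈ Y) := by
    ext c
    simp only [Finset.mem_filter, Finset.mem_univ, true_and]
    exact ⟨hstab c, fun hc => (resC_of_mem hPY hPn Λ hc).symm⟩
  rw [h2, card_filter_Y]
  have hY : (Nat.card Y : ℂ) ≠ 0 := by exact_mod_cast Nat.card_pos.ne'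
  field_simp
  ring

include hPY hPn in
/-- The norm of `Ind_Y^A 1`. -/
theorem norm_nu_one (hfrob : ∀ y ∈ Y, y ∉ P → ∀ c : A, c * y * c⁻¹ ∈ Y → c ∈ Y) :
    classInner (nu (1 : Y →* ℂˣ)) (nu (1 : Y →* ℂˣ)) =
      (Nat.card Y : ℂ)⁻¹ * ((Nat.card Y : ℂ) - (Nat.card P : ℂ) +
        (Nat.card Y : ℂ)⁻¹ * (Nat.card P : ℂ) * (Nat.card A : ℂ)) := by
  classical
  rw [inner_formula hPY hPn hfrob]
  have h1 : ∀ y : Y, (((1 : Y →* ℂˣ) y : ℂˣ) : ℂ) * conj (((1 : Y →* ℂˣ) y : ℂˣ) : ℂ) = 1 := by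
    intro y
    simp
  simp only [h1]
  rw [sum_off_one hPY]
  have h2 : Finset.univ.filter (fun c : A => resC hPY hPn (1 : Y →* ℂˣ) 1 = resC hPY hPn (1 : Y →* ℂˣ) c) =
      Finset.univ := by
    ext c
    simp only [Finset.mem_filter, Finset.mem_univ, true_and, iff_true]
    ext p
    simp [resC]
  rw [h2, Finset.card_univ, Nat.card_eq_fintype_card (α := A)]

include hPY hPn in
/-- `Ind_Y^A 1` and `Ind_Y^A Λ` are orthogonal if `Λ` is nontrivial on `P`. -/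
theorem inner_nu_one_nu (hfrob : ∀ y ∈ Y, y ∉ P → ∀ c : A, c * y * c⁻¹ ∈ Y → c ∈ Y) (Λ : Y →* ℂˣ)
    (hne : ∃ p ∈ P, ∀ hp : p ∈ Y, Λ ⟨p, hp⟩ ≠ 1) :
    classInner (nu (1 : Y →* ℂˣ)) (nu Λ) = 0 := by
  classical
  rw [inner_formula hPY hPn hfrob]
  obtain ⟨p₀, hp₀, hne⟩ := hne
  -- the characters are never equal on `P`
  have h2 : Finset.univ.filter (fun c : A => resC hPY hPn (1 : Y →* ℂˣ) 1 = resC hPY hPn Λ c) = ∅ := by
    rw [Finset.filter_eq_empty_iff]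
    intro c _ hc
    have hm : c * p₀ * c⁻¹ ∈ P := hPn c p₀ hp₀
    have h3 : resC hPY hPn (1 : Y →* ℂˣ) 1 ⟨c * p₀ * c⁻¹, hm⟩ = resC hPY hPn Λ c ⟨c * p₀ * c⁻¹, hm⟩ := by rw [hc]
    rw [resC_one_apply, MonoidHom.one_apply] at h3
    have h5 : (1 : ℂˣ) = Λ ⟨p₀, hPY hp₀⟩ := by
      rw [h3]
      show Λ _ = Λ _
      congr 1
      ext
      simp
      group
    exact hne (hPY hp₀) h5.symm
  rw [h2, Finset.card_empty]
  simp only [Nat.cast_zero, mul_zero, add_zero]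
  -- the sum over `Y \ P`
  have hf : Λ⁻¹ ≠ 1 := by
    intro h
    apply hne (hPY hp₀)
    have := congrArg (fun f : Y →* ℂˣ => f ⟨p₀, hPY hp₀⟩) h
    simpa using this
  have h3 : (∑ y : Y, ((Λ⁻¹ y : ℂˣ) : ℂ)) = 0 := by
    have := sum_hom_units_eq_zero ((Units.coeHom ℂ).comp Λ⁻¹) (by
      intro h
      apply hf
      ext y
      have := congrArg (fun f : Y →* ℂ => f y) h
      simpa using this)
    simpa using this
  let r : P →* Y := { toFun := fun p => ⟨p, hPY p.2⟩, map_one' := rfl, map_mul' := fun _ _ => rfl }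
  have h4 : (∑ p : P, (((Λ⁻¹.comp r) p : ℂˣ) : ℂ)) = 0 := by
    have := sum_hom_units_eq_zero ((Units.coeHom ℂ).comp (Λ⁻¹.comp r)) (by
      intro h
      apply hne (hPY hp₀)
      have := congrArg (fun f : P →* ℂ => f ⟨p₀, hp₀⟩) h
      have h9 : ((Λ (r ⟨p₀, hp₀⟩))⁻¹ : ℂˣ) = 1 := by
        apply Units.ext
        simpa using this
      have h10 : Λ (r ⟨p₀, hp₀⟩) = 1 := by
        simpa using h9
      exact h10)
    simpa using this
  have h5 : ∀ y : Y, (if (y : A) ∈ P then 0 else (((1 : Y →* ℂˣ) y : ℂˣ) : ℂ) * conj ((Λ y : ℂˣ) : ℂ)) =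
      ((Λ⁻¹ y : ℂˣ) : ℂ) - if (y : A) ∈ P then ((Λ⁻¹ y : ℂˣ) : ℂ) else 0 := by
    intro y
    rw [conj_apply]
    by_cases hy : (y : A) ∈ P
    · simp [hy]
    · simp [hy]
  simp only [h5]
  rw [Finset.sum_sub_distrib, h3, ← Finset.sum_filter]
  have h6 : (∑ y ∈ Finset.univ.filter (fun y : Y => (y : A) ∈ P), ((Λ⁻¹ y : ℂˣ) : ℂ)) =
      ∑ p : P, (((Λ⁻¹.comp r) p : ℂˣ) : ℂ) := by
    symm
    refine Finset.sum_bij (fun p _ => r p) ?_ ?_ ?_ ?_
    · intro p _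
      simp [r]
    · intro a _ b _ h
      exact Subtype.ext (congrArg (fun y : Y => (y : A)) h)
    · intro b hb
      rw [Finset.mem_filter] at hb
      exact ⟨⟨b, hb.2⟩, Finset.mem_univ _, rfl⟩
    · intro p _
      rfl
  rw [h6, h4]
  simp

end Frob

end Cfsg.Agent.Lib.PF.NatNu
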