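import Cfsg.Agent.Lib.PF.LemmaZ
import Cfsg.Agent.Lib.Char.GenLattice

/-!
# The cost of a family on a nilpotent group: the prime power case of the composite corner

`H` nilpotent, `O l` (`l ∈ J`, `|J| = m`, `a = 1 / m`) pairwise disjoint sets of `d` irreducible characters of one degree `f`,
not containing `1`; `g` a generalized character; `F l = δ ∑_{b ∈ O l} b + g` off `1`.  For `|ε| ≤ 1`,

`|H| d (1 - a (1 + 1 / (2 d f))²) ≤ a ∑_l ∑_{x ≠ 1} (‖F l x‖² + ε Re F l x)`.

The mean is `|H| (d (1 - a) + G)`, `G = ∑_α (y α + [α ∈ ⋃ O l] δ a - t α(1))² + ε (y 1 - t)`; `core_G` bounds `G` from below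
using the mass lemma.
-/

set_option autoImplicit false

namespace Cfsg.Agent.Lib.PF.PPCost

open Cfsg Module
open Cfsg.Agent.Lib.Char.Basic Cfsg.Agent.Lib.Char.Ortho Cfsg.Agent.Lib.Char.Complete
open Cfsg.Agent.Lib.Char.GenLattice Cfsg.Agent.Lib.Char.Degree
open Cfsg.Agent.Lib.PF.LemmaZ
open scoped ComplexConjugate

universe u

theorem int_dist (k : ℤ) {u : ℝ} (h0 : 0 ≤ u) (h1 : u ≤ 1 / 2) : u ^ 2 ≤ ((k : ℝ) + u) ^ 2 := by
  rcases lt_trichotomy k 0 with h | h | h
  · have : (k : ℝ) ≤ -1 := by exact_mod_cast (by omega : k ≤ -1)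
    nlinarith
  · subst h
    simp
  · have : (1 : ℝ) ≤ k := by exact_mod_cast (by omega : 1 ≤ k)
    nlinarith

theorem int_dist' (k : ℤ) {u : ℝ} (h0 : 0 ≤ u) (h1 : u ≤ 1 / 2) : u ^ 2 ≤ ((k : ℝ) - u) ^ 2 := by
  have := int_dist (-k) h0 h1
  push_cast at this
  nlinarith

theorem oo_dist (k : ℤ) {w a v : ℝ} (hw0 : 0 ≤ w) (hw : w ≤ 1 / 2) (ha0 : 0 ≤ a) (ha : a ≤ 1 / 2)
    (hv : v = a - w ∨ v = a + w ∨ v = -a - w ∨ v = -a + w) : (w - a) ^ 2 ≤ ((k : ℝ) + v) ^ 2 := by
  have hA : (w - a) ^ 2 ≤ (1 - a - w) ^ 2 := by nlinarith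
  have hA0 : 0 ≤ 1 - a - w := by linarith
  have hvabs : -(a + w) ≤ v ∧ v ≤ a + w := by
    rcases hv with h | h | h | h <;> subst h <;> constructor <;> linarith
  rcases lt_trichotomy k 0 with h | h | h
  · have hk : (k : ℝ) ≤ -1 := by exact_mod_cast (by omega : k ≤ -1)
    have h1 : (k : ℝ) + v ≤ -(1 - a - w) := by linarith [hvabs.2]
    nlinarith
  · subst h
    simp only [Int.cast_zero, zero_add]
    rcases hv with h | h | h | h <;> subst h <;> nlinarith [mul_nonneg ha0 hw0]
  · have hk : (1 : ℝ) ≤ k := by exact_mod_cast (by omega : 1 ≤ k)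
    have h1 : 1 - a - w ≤ (k : ℝ) + v := by linarith [hvabs.1]
    nlinarith

theorem exists_repr {z : ℝ} (hz : |z| < 1) :
    ∃ (s σ : ℝ) (κ : ℤ), 0 ≤ s ∧ s ≤ 1 / 2 ∧ (σ = 1 ∨ σ = -1) ∧ z = σ * s + κ ∧ z ^ 2 - |z| = s ^ 2 - s := by
  rcases abs_lt.mp hz with ⟨h1, h2⟩
  rcases le_total 0 z with h0 | h0
  · rcases le_total z (1 / 2) with h | h
    · refine ⟨z, 1, 0, h0, h, Or.inl rfl, by simp, by rw [abs_of_nonneg h0]⟩
    · refine ⟨1 - z, -1, 1, by linarith, by linarith, Or.inr rfl, by push_cast; ring, ?_⟩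
      rw [abs_of_nonneg h0]
      ring
  · rcases le_total (-(1 / 2)) z with h | h
    · refine ⟨-z, -1, 0, by linarith, by linarith, Or.inr rfl, by push_cast; ring, ?_⟩
      rw [abs_of_nonpos h0]
      ring
    · refine ⟨1 + z, 1, -1, by linarith, by linarith, Or.inl rfl, by push_cast; ring, ?_⟩
      rw [abs_of_nonpos h0]
      ring

set_option maxHeartbeats 1000000 in
/-- **The core inequality.** -/
theorem core_G {I : Type*} [Fintype I] [DecidableEq I] (deg : I → ℕ) (y : I → ℤ) {n : ℝ}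
    (hn : n = ∑ i, (deg i : ℝ) ^ 2) {o : I} (hdo : deg o = 1) (OO : Finset I) (hOne : OO.Nonempty) (ho : o ∉ OO)
    {f : ℕ} (hf1 : 1 ≤ f) (hOO : ∀ i ∈ OO, deg i = f) {a δ ε t : ℝ} (ha0 : 0 < a) (ha : a ≤ 1 / 2)
    (hδ : δ = 1 ∨ δ = -1)
    (hmass : ∀ h : ℕ, 2 ≤ h → (h : ℝ) ^ 2 ≤ n → (h : ℝ) ^ 2 ≤
      ∑ j ∈ Finset.univ.filter (fun j => deg j < h), (deg j : ℝ) ^ 2)
    (hε : |ε| ≤ 1) :
    -(a / f) - 1 / (4 * (OO.card : ℝ) * (f : ℝ) ^ 2) ≤
      ∑ i, ((y i : ℝ) + (if i ∈ OO then δ * a else 0) - t * deg i) ^ 2 + ε * ((y o : ℝ) - t) := by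
  set e : I → ℝ := fun i => ((y i : ℝ) + (if i ∈ OO then δ * a else 0) - t * deg i) ^ 2 with he
  have he0 : ∀ i, 0 ≤ e i := fun i => sq_nonneg _
  set z : ℝ := t - y o with hz
  have heo : e o = z ^ 2 := by
    simp only [he, ho, if_false, hdo, hz]
    push_cast
    ring
  have hezz : ε * ((y o : ℝ) - t) = -(ε * z) := by
    rw [hz]
    ring
  rw [hezz]
  have hP0 : (0 : ℝ) < OO.card := by exact_mod_cast Finset.card_pos.mpr hOne
  have hF0 : (0 : ℝ) < f := by exact_mod_cast hf1
  set P : ℝ := (OO.card : ℝ) with hP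
  have hL : -(a / f) - 1 / (4 * P * (f : ℝ) ^ 2) ≤ 0 := by
    have : 0 ≤ a / f := by positivity
    have : 0 ≤ 1 / (4 * P * (f : ℝ) ^ 2) := by positivity
    linarith
  have hεz : ε * z ≤ |z| := by
    calc ε * z ≤ |ε * z| := le_abs_self _
      _ = |ε| * |z| := abs_mul _ _
      _ ≤ 1 * |z| := mul_le_mul_of_nonneg_right hε (abs_nonneg _)
      _ = |z| := one_mul _
  -- the whole sum dominates any part
  have hpart : ∀ A : Finset I, ∑ j ∈ A, e j ≤ ∑ i, e i := fun A =>
    Finset.sum_le_sum_of_subset_of_nonneg (Finset.subset_univ _) fun j _ _ => he0 j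
  rcases le_or_gt 1 |z| with hz1 | hz1
  · -- `|z| ≥ 1`
    have h1 := hpart {o}
    rw [Finset.sum_singleton, heo] at h1
    have h2 : 0 ≤ z ^ 2 - |z| := by
      rw [← sq_abs]
      nlinarith [abs_nonneg z]
    linarith
  obtain ⟨s, σ, κ, hs0, hs1, hσ, hzr, hzs⟩ := exists_repr hz1
  -- the value at `j`
  have hval : ∀ j, (y j : ℝ) - t * deg j = ((y j - y o * deg j - κ * deg j : ℤ) : ℝ) - σ * (s * deg j) := by
    intro j
    have h : t = y o + (σ * s + κ) := by
      rw [← hzr, hz]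
      ring
    rw [h]
    push_cast
    ring
  have hlow : ∀ j, j ∉ OO → s * deg j ≤ 1 / 2 → (s * deg j) ^ 2 ≤ e j := by
    intro j hj h
    have h0 : 0 ≤ s * deg j := by positivity
    have h2 : e j = ((y j : ℝ) - t * deg j) ^ 2 := by
      simp only [he, hj, if_false, add_zero]
    rw [h2, hval]
    rcases hσ with rfl | rfl
    · simpa using int_dist' (y j - y o * deg j - κ * deg j) h0 h
    · have := int_dist (y j - y o * deg j - κ * deg j) h0 h
      simpa using this
  set w : ℝ := s * f with hw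
  have hw0 : 0 ≤ w := by positivity
  have hs_w : s = w / f := by
    rw [hw]
    field_simp
  have hoterm : s ^ 2 - s ≤ z ^ 2 - ε * z := by
    rw [← hzs]
    linarith
  rcases lt_or_ge (1 / 2) w with hw1 | hw1
  · -- case A: `w > 1/2`
    have hs00 : 0 < s := by
      by_contra h
      have h1 : s = 0 := le_antisymm (not_lt.mp h) hs0
      rw [hw, h1] at hw1
      norm_num at hw1
    have hinv : 1 ≤ 1 / (2 * s) := by
      rw [le_div_iff₀ (by positivity)]
      linarith
    set h₀ : ℕ := ⌊1 / (2 * s)⌋₊ with hh₀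
    have hh1 : (h₀ : ℝ) ≤ 1 / (2 * s) := Nat.floor_le (by positivity)
    have hh2 : 1 / (2 * s) < (h₀ : ℝ) + 1 := Nat.lt_floor_add_one _
    have hh3 : 1 ≤ h₀ := Nat.le_floor (by simpa using hinv)
    have hj2 : 2 ≤ h₀ + 1 := by omega
    have hjf : h₀ + 1 ≤ f := by
      have h1 : (h₀ : ℝ) < f := by
        refine lt_of_le_of_lt hh1 ?_
        rw [div_lt_iff₀ (by positivity)]
        nlinarith
      have h2 : h₀ < f := by exact_mod_cast h1
      omega
    have hsum_f : (f : ℝ) ^ 2 ≤ n := by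
      obtain ⟨i, hi⟩ := hOne
      rw [hn, ← hOO i hi]
      exact Finset.single_le_sum (f := fun j => (deg j : ℝ) ^ 2) (fun _ _ => by positivity) (Finset.mem_univ i)
    have hjle : (((h₀ + 1 : ℕ) : ℝ)) ^ 2 ≤ n := by
      refine le_trans ?_ hsum_f
      have : ((h₀ + 1 : ℕ) : ℝ) ≤ f := by exact_mod_cast hjf
      exact pow_le_pow_left₀ (by positivity) this 2
    have hm := hmass (h₀ + 1) hj2 hjle
    set A := Finset.univ.filter (fun j => deg j < h₀ + 1) with hA
    have hoA : o ∈ A := by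
      simp only [hA, Finset.mem_filter, Finset.mem_univ, true_and, hdo]
      omega
    have hnotOO : ∀ j ∈ A, j ∉ OO := by
      intro j hj hj2
      have h1 := (Finset.mem_filter.mp hj).2
      rw [hOO j hj2] at h1
      omega
    have hlowA : ∀ j ∈ A, s * deg j ≤ 1 / 2 := by
      intro j hj
      have h1 := (Finset.mem_filter.mp hj).2
      have h2 : deg j ≤ h₀ := by omega
      have h3 : (deg j : ℝ) ≤ h₀ := by exact_mod_cast h2
      have h4 : (deg j : ℝ) ≤ 1 / (2 * s) := h3.trans hh1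
      have h5 : s * deg j ≤ s * (1 / (2 * s)) := mul_le_mul_of_nonneg_left h4 hs0
      have h6 : s * (1 / (2 * s)) = 1 / 2 := by
        field_simp
      linarith
    have hsumA : ∑ j ∈ A, e j ≥ e o + s ^ 2 * (∑ j ∈ A, (deg j : ℝ) ^ 2 - 1) := by
      rw [← Finset.add_sum_erase A _ hoA, ← Finset.add_sum_erase A (fun j => (deg j : ℝ) ^ 2) hoA, hdo]
      have h1 : s ^ 2 * ∑ j ∈ A.erase o, (deg j : ℝ) ^ 2 ≤ ∑ j ∈ A.erase o, e j := by
        rw [Finset.mul_sum]
        refine Finset.sum_le_sum fun j hj => ?_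
        have hjA := Finset.mem_of_mem_erase hj
        have := hlow j (hnotOO j hjA) (hlowA j hjA)
        rw [mul_pow] at this
        exact this
      push_cast
      have h2 : s ^ 2 * ((1 : ℝ) ^ 2 + ∑ j ∈ A.erase o, (deg j : ℝ) ^ 2 - 1) = s ^ 2 * ∑ j ∈ A.erase o, (deg j : ℝ) ^ 2 := by
        ring
      simp only [ge_iff_le]
      rw [h2]
      linarith
    have htot := hpart A
    rw [heo] at hsumA
    have hj_s : 1 / 2 < s * ((h₀ + 1 : ℕ) : ℝ) := by
      push_cast
      have := (div_lt_iff₀ (by positivity : 0 < 2 * s)).mp hh2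
      have e : ((h₀ : ℝ) + 1) * (2 * s) = 2 * (s * ((h₀ : ℝ) + 1)) := by ring
      linarith
    have hj_sq : s ≤ s ^ 2 * ((h₀ + 1 : ℕ) : ℝ) ^ 2 := by
      have hj2r : (2 : ℝ) ≤ ((h₀ + 1 : ℕ) : ℝ) := by exact_mod_cast hj2
      generalize ((h₀ + 1 : ℕ) : ℝ) = J at hj_s hj2r ⊢
      have h1 : s ^ 2 * J ^ 2 = s * ((s * J) * J) := by ring
      rw [h1]
      have h2 : (1 / 2 : ℝ) * 2 ≤ (s * J) * J :=
        mul_le_mul hj_s.le hj2r (by norm_num) (by linarith)
      exact le_mul_of_one_le_right hs0 (by linarith)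
    have hfin : s ^ 2 * ((h₀ + 1 : ℕ) : ℝ) ^ 2 ≤ s ^ 2 * ∑ j ∈ A, (deg j : ℝ) ^ 2 :=
      mul_le_mul_of_nonneg_left hm (by positivity)
    have hexp : s ^ 2 * (∑ j ∈ A, (deg j : ℝ) ^ 2 - 1) = s ^ 2 * ∑ j ∈ A, (deg j : ℝ) ^ 2 - s ^ 2 := by
      ring
    have hgoal0 : 0 ≤ ∑ i, e i - ε * z := by
      linarith
    linarith
  · -- case B: `w ≤ 1/2`
    have hoo : ∀ j ∈ OO, (w - a) ^ 2 ≤ e j := by
      intro j hj
      have h2 : e j = ((y j - y o * deg j - κ * deg j : ℤ) + (δ * a - σ * w)) ^ 2 := by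
        simp only [he, hj, if_true]
        have := hval j
        rw [hOO j hj] at this ⊢
        rw [hw]
        linear_combination ((y j : ℝ) + δ * a - t * f + (((y j - y o * f - κ * f : ℤ) : ℝ) + (δ * a - σ * (s * f)))) * this
      rw [h2]
      apply oo_dist _ hw0 hw1 ha0.le ha
      rcases hδ with rfl | rfl <;> rcases hσ with rfl | rfl
      · left; ring
      · right; left; ring
      · right; right; left; ring
      · right; right; right; ring
    have hOOsum : P * (w - a) ^ 2 ≤ ∑ j ∈ OO, e j := by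
      rw [hP, ← nsmul_eq_mul, ← Finset.sum_const]
      exact Finset.sum_le_sum hoo
    -- the low part
    have hlowpart : w ^ 2 - s + P * (w - a) ^ 2 ≤ ∑ i, e i - ε * z := by
      rcases Nat.lt_or_ge 1 f with hf2 | hf2
      · -- `f ≥ 2`
        have hsum_f : (f : ℝ) ^ 2 ≤ n := by
          obtain ⟨i, hi⟩ := hOne
          rw [hn, ← hOO i hi]
          exact Finset.single_le_sum (f := fun j => (deg j : ℝ) ^ 2) (fun _ _ => by positivity) (Finset.mem_univ i)
        have hm := hmass f hf2 hsum_f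
        set A := Finset.univ.filter (fun j => deg j < f) with hA
        have hoA : o ∈ A := by
          simp only [hA, Finset.mem_filter, Finset.mem_univ, true_and, hdo]
          exact hf2
        have hnotOO : ∀ j ∈ A, j ∉ OO := by
          intro j hj hj2
          have h1 := (Finset.mem_filter.mp hj).2
          rw [hOO j hj2] at h1
          omega
        have hlowA : ∀ j ∈ A, s * deg j ≤ 1 / 2 := by
          intro j hj
          have h1 := (Finset.mem_filter.mp hj).2
          have h3 : (deg j : ℝ) ≤ f := by exact_mod_cast h1.le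
          have h5 : s * deg j ≤ s * f := mul_le_mul_of_nonneg_left h3 hs0
          linarith
        have hsumA : e o + s ^ 2 * (∑ j ∈ A, (deg j : ℝ) ^ 2 - 1) ≤ ∑ j ∈ A, e j := by
          rw [← Finset.add_sum_erase A (fun j => (deg j : ℝ) ^ 2) hoA, ← Finset.add_sum_erase A e hoA, hdo]
          have h1 : s ^ 2 * ∑ j ∈ A.erase o, (deg j : ℝ) ^ 2 ≤ ∑ j ∈ A.erase o, e j := by
            rw [Finset.mul_sum]
            refine Finset.sum_le_sum fun j hj => ?_
            have hjA := Finset.mem_of_mem_erase hj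
            have := hlow j (hnotOO j hjA) (hlowA j hjA)
            rw [mul_pow] at this
            exact this
          push_cast
          nlinarith
        have hdisj : Disjoint A OO := Finset.disjoint_left.mpr fun j hj hj2 => hnotOO j hj hj2
        have htot := hpart (A ∪ OO)
        rw [Finset.sum_union hdisj] at htot
        rw [heo] at hsumA
        have hfin : s ^ 2 * (f : ℝ) ^ 2 ≤ s ^ 2 * ∑ j ∈ A, (deg j : ℝ) ^ 2 :=
          mul_le_mul_of_nonneg_left hm (by positivity)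
        have hww : w ^ 2 = s ^ 2 * (f : ℝ) ^ 2 := by
          rw [hw]
          ring
        nlinarith
      · -- `f = 1`
        have hf : f = 1 := le_antisymm hf2 hf1
        have hws : w = s := by
          rw [hw, hf]
          simp
        have hdisj : Disjoint ({o} : Finset I) OO := by
          rw [Finset.disjoint_singleton_left]
          exact ho
        have htot := hpart ({o} ∪ OO)
        rw [Finset.sum_union hdisj, Finset.sum_singleton, heo] at htot
        rw [hws] at hOOsum ⊢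
        nlinarith
    have hquad : -(a / f) - 1 / (4 * P * (f : ℝ) ^ 2) ≤ w ^ 2 - s + P * (w - a) ^ 2 := by
      have h1 : 0 ≤ P * ((w - a) - 1 / (2 * P * f)) ^ 2 := mul_nonneg hP0.le (sq_nonneg _)
      have h2 : P * ((w - a) - 1 / (2 * P * f)) ^ 2 =
          P * (w - a) ^ 2 - (w - a) / f + 1 / (4 * P * (f : ℝ) ^ 2) := by
        field_simp
        ring
      rw [h2] at h1
      rw [hs_w]
      have h3 : (w - a) / f = w / f - a / f := by
        ring
      rw [h3] at h1
      nlinarith [sq_nonneg w]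
    linarith

variable {H : Type u} [Group H] [Fintype H] [Fintype (IrrCharacter H)]

/-- The values of an expansion. -/
theorem eval_expansion (c : IrrCharacter H → ℤ) (x : H) :
    (∑ i, c i • (i : H → ℂ)) x = ∑ i, (c i : ℂ) * (i : H → ℂ) x := by
  rw [Finset.sum_apply]
  refine Finset.sum_congr rfl fun i _ => ?_
  rw [Pi.smul_apply, zsmul_eq_mul]

/-- Sum of the values of an expansion. -/
theorem sum_of_expansion (F : H → ℂ) (r : IrrCharacter H → ℤ) (hF : F = ∑ χ, r χ • (χ : H → ℂ))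
    {one : IrrCharacter H} (hone : (one : H → ℂ) = fun _ => 1) :
    ∑ x, F x = (Nat.card H : ℂ) * r one := by
  have h2 := classInner_of_int_combination (G := H) r one
  rw [← hF, classInner_def] at h2
  have hne : (Nat.card H : ℂ) ≠ 0 := card_ne_zero_complex
  have h3 : ∑ x, F x * conj ((one : H → ℂ) x) = (Nat.card H : ℂ) * r one := by
    field_simp at h2
    linear_combination h2
  simpa [hone] using h3

/-- The number of indices containing a given vector. -/
theorem sum_ite_biUnion {ι B : Type*} [DecidableEq ι] [DecidableEq B] (J : Finset ι) (O : ι → Finset B)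
    (hO : ∀ l ∈ J, ∀ l' ∈ J, l ≠ l' → Disjoint (O l) (O l')) (i : B) (c : ℝ) :
    ∑ l ∈ J, (if i ∈ O l then c else 0) = if i ∈ J.biUnion O then c else 0 := by
  split_ifs with h
  · obtain ⟨l₀, hl₀, hi⟩ := Finset.mem_biUnion.mp h
    rw [Finset.sum_eq_single l₀, if_pos hi]
    · intro l hl hne
      rw [if_neg]
      intro hi2
      exact Finset.disjoint_left.mp (hO l hl l₀ hl₀ hne) hi2 hi
    · intro h2
      exact absurd hl₀ h2
  · apply Finset.sum_eq_zero
    intro l hl
    rw [if_neg]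
    intro hi
    exact h (Finset.mem_biUnion.mpr ⟨l, hl, hi⟩)

open Classical in
/-- **The bound.** -/
theorem main (hnil : Group.IsNilpotent H) {ι : Type*} (J : Finset ι) (hJ : 2 ≤ J.card)
    (O : ι → Finset (IrrCharacter H)) (hO : ∀ l ∈ J, ∀ l' ∈ J, l ≠ l' → Disjoint (O l) (O l')) {d f : ℕ}
    (hd : 0 < d) (hOd : ∀ l ∈ J, (O l).card = d) (hf : ∀ l ∈ J, ∀ b ∈ O l, charDegree (b : H → ℂ) = f)
    (hone : ∀ l ∈ J, ∀ b ∈ O l, (b : H → ℂ) ≠ fun _ => 1) {g : H → ℂ} (hg : IsGeneralizedCharacter H g)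
    {δ : ℝ} (hδ : δ = 1 ∨ δ = -1) (F : ι → H → ℂ)
    (hF : ∀ l ∈ J, ∀ x, x ≠ 1 → F l x = (δ : ℂ) * ∑ b ∈ O l, (b : H → ℂ) x + g x) {ε : ℝ} (hε : |ε| ≤ 1) :
    (Nat.card H : ℝ) * ((d : ℝ) * (1 - (J.card : ℝ)⁻¹ * (1 + 1 / (2 * (d : ℝ) * (f : ℝ))) ^ 2)) ≤
      (J.card : ℝ)⁻¹ * ∑ l ∈ J, ∑ x ∈ Finset.univ.erase (1 : H), (‖F l x‖ ^ 2 + ε * (F l x).re) := by
  obtain ⟨y, hy⟩ := exists_int_combination hg
  have hJ0 : (0 : ℝ) < J.card := by exact_mod_cast (by omega : 0 < J.card)
  have hJne : J.Nonempty := Finset.card_pos.mp (by omega)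
  set a : ℝ := (J.card : ℝ)⁻¹ with ha
  have ha0 : 0 < a := by positivity
  have ha2 : a ≤ 1 / 2 := by
    rw [ha, one_div]
    exact inv_anti₀ (by norm_num) (by exact_mod_cast hJ)
  have haJ : a * J.card = 1 := by
    rw [ha]
    field_simp
  set n : ℝ := (Nat.card H : ℝ) with hn
  have hn0 : 0 < n := by
    rw [hn]
    exact_mod_cast Nat.card_pos
  obtain ⟨δ', hδ'⟩ : ∃ δ' : ℤ, (δ' : ℝ) = δ ∧ (δ' = 1 ∨ δ' = -1) := by
    rcases hδ with h | h
    · exact ⟨1, by simp [h], Or.inl rfl⟩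
    · exact ⟨-1, by simp [h], Or.inr rfl⟩
  obtain ⟨hδ1, hδ2⟩ := hδ'
  have hδsq : δ ^ 2 = 1 := by
    rcases hδ with h | h <;> rw [h] <;> norm_num
  -- the trivial character
  let o : IrrCharacter H := ⟨fun _ => 1, Cfsg.Agent.Lib.Char.Burnside.isIrrCharacter_one⟩
  have hoval : (o : H → ℂ) = fun _ => 1 := rfl
  set deg : IrrCharacter H → ℕ := fun χ => charDegree (χ : H → ℂ) with hdeg
  have hdo : deg o = 1 := by
    apply charDegree_eq_of_eq_natCast
    simp [hoval]
  have hdegval : ∀ χ : IrrCharacter H, (χ : H → ℂ) 1 = (deg χ : ℂ) := fun χ =>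
    (charDegree_natCast (isCharacter_of_isIrrCharacter χ.2)).symm
  have hsumdeg : n = ∑ i, (deg i : ℝ) ^ 2 := by
    have : ∑ χ : IrrCharacter H, charDegree (χ : H → ℂ) ^ 2 = Nat.card H := sum_charDegree_sq
    rw [hn, ← this]
    push_cast
    rfl
  set OO := J.biUnion O with hOO
  have hOOcard : OO.card = J.card * d := by
    rw [hOO, Finset.card_biUnion (fun i hi j hj hij => hO i hi j hj hij), Finset.sum_congr rfl hOd,
      Finset.sum_const, smul_eq_mul]
  have hOOne : OO.Nonempty := by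
    rw [← Finset.card_pos, hOOcard]
    have : 0 < J.card := by omega
    positivity
  have hoOO : o ∉ OO := by
    intro h
    obtain ⟨l, hl, hb⟩ := Finset.mem_biUnion.mp h
    exact hone l hl o hb hoval
  have hdOO : ∀ i ∈ OO, deg i = f := by
    intro i hi
    obtain ⟨l, hl, hb⟩ := Finset.mem_biUnion.mp hi
    exact hf l hl i hb
  have hf1 : 1 ≤ f := by
    obtain ⟨i, hi⟩ := hOOne
    rw [← hdOO i hi]
    exact charDegree_pos i.2
  have hmass : ∀ h : ℕ, 2 ≤ h → (h : ℝ) ^ 2 ≤ n → (h : ℝ) ^ 2 ≤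
      ∑ j ∈ Finset.univ.filter (fun j => deg j < h), (deg j : ℝ) ^ 2 := by
    intro h h2 hle
    have h3 : h ^ 2 ≤ Nat.card H := by
      rw [hn] at hle
      exact_mod_cast hle
    have := mass_lemma hnil h2 h3
    exact_mod_cast this
  set P : ℝ := (OO.card : ℝ) with hP
  have hPa : P * a = d := by
    rw [hP, hOOcard]
    push_cast
    calc (J.card : ℝ) * d * a = (a * J.card) * d := by ring
      _ = d := by rw [haJ, one_mul]
  -- the degree of `F`
  set D : ℝ := ∑ i, ((y i : ℝ) + (if i ∈ OO then δ * a else 0)) * deg i with hD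
  set t : ℝ := D / n with ht
  have hcore := core_G deg y hsumdeg hdo OO hOOne hoOO hf1 hdOO (t := t) ha0 ha2 hδ hmass hε
  -- each member
  have hl : ∀ l ∈ J, ∑ x ∈ Finset.univ.erase (1 : H), (‖F l x‖ ^ 2 + ε * (F l x).re) =
      n * (∑ i, ((y i : ℝ) + (if i ∈ O l then δ else 0)) ^ 2 + ε * y o) - D ^ 2 - ε * D := by
    intro l hlJ
    set c : IrrCharacter H → ℤ := fun i => y i + (if i ∈ O l then δ' else 0) with hc
    set F' : H → ℂ := ∑ i, c i • (i : H → ℂ) with hF'
    have hcr : ∀ i, (c i : ℝ) = (y i : ℝ) + (if i ∈ O l then δ else 0) := by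
      intro i
      simp only [hc]
      push_cast
      split_ifs
      · rw [hδ1]
      · rfl
    have hval : ∀ x, F' x = (δ : ℂ) * ∑ b ∈ O l, (b : H → ℂ) x + g x := by
      intro x
      rw [hy, hF', eval_expansion, eval_expansion, Finset.mul_sum]
      have h1 : ∀ i : IrrCharacter H, (c i : ℂ) * (i : H → ℂ) x =
          (if i ∈ O l then (δ : ℂ) * (i : H → ℂ) x else 0) + (y i : ℂ) * (i : H → ℂ) x := by
        intro i
        simp only [hc]
        split_ifs
        · have : ((δ' : ℤ) : ℂ) = (δ : ℂ) := by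
            rw [← hδ1]
            push_cast
            rfl
          push_cast
          rw [this]
          ring
        · simp
      rw [Finset.sum_congr rfl fun i _ => h1 i, Finset.sum_add_distrib, Finset.sum_ite_mem, Finset.univ_inter]
    have hoff : ∀ x ∈ Finset.univ.erase (1 : H), F l x = F' x := by
      intro x hx
      rw [hF l hlJ x (Finset.ne_of_mem_erase hx), hval]
    rw [Finset.sum_congr rfl fun x hx => by rw [hoff x hx]]
    have hS1 := sum_norm_sq_of_expansion F' c rfl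
    have hS2 := sum_of_expansion F' c rfl hoval
    have hS2re : ∑ x, (F' x).re = n * (c o : ℝ) := by
      have := congrArg Complex.re hS2
      rw [Complex.re_sum] at this
      rw [this]
      have e : (Nat.card H : ℂ) * (c o : ℂ) = ((n * (c o : ℝ) : ℝ) : ℂ) := by
        rw [hn]
        push_cast
        rfl
      rw [e, Complex.ofReal_re]
    have hco : (c o : ℝ) = y o := by
      rw [hcr o, if_neg]
      · simp
      · intro h
        exact hoOO (Finset.mem_biUnion.mpr ⟨l, hlJ, h⟩)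
    have hone1 : F' 1 = (D : ℂ) := by
      rw [hF', eval_expansion]
      -- both are degrees
      have e1 : ∀ i : IrrCharacter H, (c i : ℂ) * (i : H → ℂ) 1 = (((c i : ℝ) * deg i : ℝ) : ℂ) := by
        intro i
        rw [hdegval]
        push_cast
        rfl
      rw [Finset.sum_congr rfl fun i _ => e1 i, ← Complex.ofReal_sum]
      have e2 : ∑ i, (c i : ℝ) * deg i = D := by
        simp only [hcr, add_mul]
        rw [hD]
        simp only [add_mul]
        rw [Finset.sum_add_distrib, Finset.sum_add_distrib]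
        congr 1
        have e3 : ∀ i, ((if i ∈ O l then δ else 0) * (deg i : ℝ)) = if i ∈ O l then δ * f else 0 := by
          intro i
          split_ifs with h
          · have h9 : deg i = f := hf l hlJ i h
            rw [h9]
          · simp
        have e4 : ∀ i, ((if i ∈ OO then δ * a else 0) * (deg i : ℝ)) = if i ∈ OO then δ * a * f else 0 := by
          intro i
          split_ifs with h
          · rw [hdOO i h]
          · simp
        simp only [e3, e4, Finset.sum_ite_mem, Finset.univ_inter, Finset.sum_const, nsmul_eq_mul]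
        rw [hOd l hlJ, ← hP]
        have : P * (δ * a * f) = (P * a) * (δ * f) := by ring
        rw [this, hPa]
      rw [e2]
    have h4 := Finset.add_sum_erase (Finset.univ : Finset H) (fun x => ‖F' x‖ ^ 2 + ε * (F' x).re) (Finset.mem_univ 1)
    have h5 : ∑ x, (‖F' x‖ ^ 2 + ε * (F' x).re) = n * (∑ i, (c i : ℝ) ^ 2 + ε * y o) := by
      rw [Finset.sum_add_distrib, hS1, ← Finset.mul_sum, hS2re, hco]
      ring
    rw [h5] at h4
    simp only [hone1, Complex.norm_real, Complex.ofReal_re, Real.norm_eq_abs, sq_abs] at h4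
    simp only [hcr] at h4
    linarith
  -- the mean
  have hsq : ∀ i : IrrCharacter H, ∑ l ∈ J, ((y i : ℝ) + (if i ∈ O l then δ else 0)) ^ 2 =
      (J.card : ℝ) * (y i : ℝ) ^ 2 + (if i ∈ OO then 2 * δ * y i + 1 else 0) := by
    intro i
    have e : ∀ l ∈ J, ((y i : ℝ) + (if i ∈ O l then δ else 0)) ^ 2 =
        (y i : ℝ) ^ 2 + (if i ∈ O l then 2 * δ * y i + 1 else 0) := by
      intro l _
      split_ifs
      · nlinarith
      · ring
    rw [Finset.sum_congr rfl e, Finset.sum_add_distrib, Finset.sum_const, nsmul_eq_mul, sum_ite_biUnion J O hO]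
  have hmean : a * ∑ l ∈ J, ∑ x ∈ Finset.univ.erase (1 : H), (‖F l x‖ ^ 2 + ε * (F l x).re) =
      n * ((d : ℝ) * (1 - a) + (∑ i, ((y i : ℝ) + (if i ∈ OO then δ * a else 0) - t * deg i) ^ 2 +
        ε * ((y o : ℝ) - t))) := by
    rw [Finset.sum_congr rfl hl]
    have e1 : ∑ l ∈ J, (n * (∑ i, ((y i : ℝ) + (if i ∈ O l then δ else 0)) ^ 2 + ε * y o) - D ^ 2 - ε * D) =
        n * (∑ i, ((J.card : ℝ) * (y i : ℝ) ^ 2 + (if i ∈ OO then 2 * δ * y i + 1 else 0)) + J.card * (ε * y o)) -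
          J.card * (D ^ 2 + ε * D) := by
      have e2 : ∀ l ∈ J, n * (∑ i, ((y i : ℝ) + (if i ∈ O l then δ else 0)) ^ 2 + ε * y o) - D ^ 2 - ε * D =
          n * (∑ i, ((y i : ℝ) + (if i ∈ O l then δ else 0)) ^ 2) + (n * (ε * y o) - D ^ 2 - ε * D) := by
        intro l _
        ring
      rw [Finset.sum_congr rfl e2, Finset.sum_add_distrib, ← Finset.mul_sum, Finset.sum_comm,
        Finset.sum_congr rfl fun i _ => hsq i, Finset.sum_const, nsmul_eq_mul]
      ring
    rw [e1]
    -- expand the square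
    have e3 : ∑ i, ((y i : ℝ) + (if i ∈ OO then δ * a else 0) - t * deg i) ^ 2 =
        ∑ i, ((y i : ℝ) ^ 2 + (if i ∈ OO then a * (2 * δ * y i + 1) else 0)) + (a ^ 2 - a) * P - D ^ 2 / n := by
      have e4 : ∀ i, ((y i : ℝ) + (if i ∈ OO then δ * a else 0) - t * deg i) ^ 2 =
          ((y i : ℝ) ^ 2 + (if i ∈ OO then a * (2 * δ * y i + 1) else 0)) + (if i ∈ OO then a ^ 2 - a else 0)
            - 2 * t * (((y i : ℝ) + (if i ∈ OO then δ * a else 0)) * deg i) + t ^ 2 * (deg i : ℝ) ^ 2 := by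
        intro i
        split_ifs
        · linear_combination (a ^ 2) * hδsq
        · ring
      rw [Finset.sum_congr rfl fun i _ => e4 i, Finset.sum_add_distrib, Finset.sum_sub_distrib, Finset.sum_add_distrib,
        ← Finset.mul_sum, ← Finset.mul_sum, ← hsumdeg, ← hD, Finset.sum_ite_mem, Finset.univ_inter, Finset.sum_const,
        nsmul_eq_mul, ← hP]
      generalize (∑ i, ((y i : ℝ) ^ 2 + (if i ∈ OO then a * (2 * δ * y i + 1) else 0))) = Y0
      rw [ht]
      field_simp
      ring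
    rw [e3]
    have e5 : ∑ i, ((J.card : ℝ) * (y i : ℝ) ^ 2 + (if i ∈ OO then 2 * δ * y i + 1 else 0)) =
        (J.card : ℝ) * ∑ i, ((y i : ℝ) ^ 2 + (if i ∈ OO then a * (2 * δ * y i + 1) else 0)) := by
      rw [Finset.mul_sum]
      refine Finset.sum_congr rfl fun i _ => ?_
      rw [mul_add]
      congr 1
      split_ifs
      · rw [← mul_assoc, mul_comm (J.card : ℝ) a, haJ, one_mul]
      · simp
    rw [e5]
    set Y := ∑ i, ((y i : ℝ) ^ 2 + (if i ∈ OO then a * (2 * δ * y i + 1) else 0)) with hY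
    have hPd : (d : ℝ) = P * a := hPa.symm
    have e6 : a * (n * ((J.card : ℝ) * Y + J.card * (ε * y o)) - J.card * (D ^ 2 + ε * D)) =
        (a * J.card) * (n * (Y + ε * y o) - (D ^ 2 + ε * D)) := by
      ring
    rw [e6, haJ, one_mul, hPd, ht]
    field_simp
    ring
  rw [hmean]
  apply mul_le_mul_of_nonneg_left _ hn0.le
  have hd0 : (0 : ℝ) < d := by exact_mod_cast hd
  have hF0 : (0 : ℝ) < f := by exact_mod_cast hf1
  have hP1 : 1 / (4 * P * (f : ℝ) ^ 2) = a / (4 * (d : ℝ) * (f : ℝ) ^ 2) := by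
    have hP0 : P ≠ 0 := by
      intro h
      rw [h, zero_mul] at hPa
      exact hd0.ne hPa
    have hPd : (d : ℝ) = P * a := hPa.symm
    rw [hPd]
    field_simp
  rw [hP1] at hcore
  have e7 : (d : ℝ) * (1 - a * (1 + 1 / (2 * (d : ℝ) * (f : ℝ))) ^ 2) =
      (d : ℝ) * (1 - a) + (-(a / f) - a / (4 * (d : ℝ) * (f : ℝ) ^ 2)) := by
    field_simp
    ring
  rw [e7]
  linarith

end Cfsg.Agent.Lib.PF.PPCost
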